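import Cfsg.Agent.L0.HS.Pres
import Cfsg.Agent.L0.HS.Cov0

/-! The covering group. -/

set_option autoImplicit false
set_option maxRecDepth 100000

namespace Cfsg.Agent.L0.HSPres

theorem lower {G : Type*} [Group G] [Finite G] {x : ℕ → G} (h : IsPres x 11 R) :
    LowerMult G (Multiplicative (ZMod 2)) :=
  lower_one h (HSCov0.rep (by decide +kernel))
      [(1, 10), (-1, 16), (-1, 27), (-1, 31), (1, 35)]
      (by decide +kernel) (by decide +kernel)

end Cfsg.Agent.L0.HSPres
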