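import Cfsg.Agent.L0.CosetChain

/-! Generated coset table certificate. -/

set_option autoImplicit false
set_option maxRecDepth 100000

namespace Cfsg.Agent.L0.HSPc0

noncomputable def t0 : BT := .leaf (nat_lit 0xac500000000000000800)

noncomputable def tree : BT := t0

noncomputable def row : ℕ → ℕ := rowOf tree (nat_lit 3) (nat_lit 7) (nat_lit 65) (nat_lit 0x1ffffffffffffffff)

noncomputable def cols : List Col := [⟨nat_lit 10, nat_lit 0, [([nat_lit 10], nat_lit 0)]⟩]

noncomputable def erots : List (List ℕ × ℕ) := []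

noncomputable def gens : List ℕ := [nat_lit 10]

noncomputable def chk : ℕ → Bool := chkRow0 row (nat_lit 2) (nat_lit 0x3) (nat_lit 0x4) (nat_lit 3) (nat_lit 0x3) (nat_lit 0) (nat_lit 0x3) (nat_lit 2) (nat_lit 0x7f) (nat_lit 0x200) [] cols gens

theorem b0 : allR chk 1 0 = true := by decide +kernel

noncomputable def T : CT := ⟨row, nat_lit 2, nat_lit 2, nat_lit 0x3, nat_lit 0x4, nat_lit 3, nat_lit 0x3, nat_lit 0, nat_lit 0x3, nat_lit 2, nat_lit 0x7f, nat_lit 0x200, nat_lit 65, nat_lit 65, nat_lit 0, nat_lit 2, [], cols, erots, gens⟩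

theorem all : ∀ c < 2, chk c = true := fun c hc =>
  allR_glue (d := 1) (n := 1) (forall_lt_succ' forall_lt_zero' b0) c (lt_of_lt_of_le hc (by norm_num))

/-- the relators used -/
def R : List (List ℕ) := [[nat_lit 0, nat_lit 0]]

theorem cert : Cert T (R.map fun r => (r, 0)) ([].map fun y => (y, 0)) 10 5 [0] :=
  ⟨by decide +kernel, ⟨[[(0, 0)]], [], by decide +kernel⟩, by decide +kernel, Or.inl ⟨rfl, all⟩⟩

theorem bound {Γ : Type*} [Group Γ] {x : ℕ → Γ} (hR : ∀ r ∈ R, ev x r = 1) {n : ℕ}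
    (h : CardLe x [] n) : CardLe x [0] (2 * n) :=
  cert.cardLe rfl hR h

end Cfsg.Agent.L0.HSPc0
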